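import Mathlib
import Cfsg.Agent.Lib.Helper59.AutO.Main

set_option autoImplicit false

/-!
The four statements on `Aut(Ω_{2m+1}(q))`, from the hypothesis
`Cfsg.gammaPOmega F (Cfsg.quadFormOdd m F) = ⊤`.
-/

namespace Cfsg.Agent.Lib.Helper59.AutO

open Cfsg.Agent.Lib.Helper49

theorem coset_conj_odd {F : Type*} [Field F] [Fintype F] (hodd : Odd (Fintype.card F)) {m : ℕ}
    (hm : 3 ≤ m) (hAut : Cfsg.gammaPOmega F (Cfsg.quadFormOdd m F) = ⊤)
    (x δ : MulAut (Cfsg.POmega F (Cfsg.quadFormOdd m F)))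
    (hx : Cfsg.IsFieldAutClassPOmega (Cfsg.quadFormOdd m F) x) {r : ℕ} (hr : r.Prime)
    (hxr : orderOf x = r) (hδ : δ ∈ Cfsg.inndiagPOmegaOdd m F) :
    orderOf (δ * x) = r ↔ Cfsg.IsConjUnder (Cfsg.inndiagPOmegaOdd m F) x (δ * x) := by
  have h2 := two_ne_of_odd_card hodd
  haveI := std_odd m h2
  haveI := rig_odd m hm h2
  have key : ∀ (Qf : (Unit ⊕ (Fin m ⊕ Fin m) → F) → F), Qf = ⇑(oddQF m F) →
      Cfsg.gammaPOmega F Qf = ⊤ →
      ∀ (x δ : MulAut (Cfsg.POmega F Qf)), Cfsg.IsFieldAutClassPOmega Qf x → orderOf x = r →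
        δ ∈ Cfsg.pgoAut F Qf →
        (orderOf (δ * x) = r ↔ Cfsg.IsConjUnder (Cfsg.pgoAut F Qf) x (δ * x)) := by
    rintro _ rfl hA x δ hx hxr hδ
    exact coset_conj (oddQF m F) (normal_of_gamma _ hA) x δ hx hr.pos hxr hδ
  exact key _ (oddQF_coe m F).symm hAut x δ hx hxr hδ

theorem field_cent_odd {F : Type*} [Field F] [Fintype F] {p f : ℕ} [Fact p.Prime]
    (hF : Fintype.card F = p ^ f) (hodd : Odd (Fintype.card F)) {m : ℕ}
    (hm : 3 ≤ m) (hAut : Cfsg.gammaPOmega F (Cfsg.quadFormOdd m F) = ⊤)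
    (x : MulAut (Cfsg.POmega F (Cfsg.quadFormOdd m F)))
    (hx : Cfsg.IsFieldAutClassPOmega (Cfsg.quadFormOdd m F) x) {r : ℕ} (hr : r.Prime)
    (hxr : orderOf x = r) (F₀ : Type*) [Field F₀] [Fintype F₀]
    (hF₀ : Fintype.card F₀ = p ^ (f / r)) :
    r ∣ f ∧ Nonempty (↥(Cfsg.inndiagPOmegaOdd m F ⊓ Subgroup.centralizer {x}) ≃*
        ↥(Cfsg.inndiagPOmegaOdd m F₀)) ∧
      (Odd r → Cfsg.splitClassCount (Cfsg.inndiagPOmegaOdd m F)
        (Cfsg.Inn (Cfsg.POmega F (Cfsg.quadFormOdd m F))) x = 1) ∧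
      (r = 2 → Cfsg.splitClassCount (Cfsg.inndiagPOmegaOdd m F)
        (Cfsg.Inn (Cfsg.POmega F (Cfsg.quadFormOdd m F))) x = 2) := by
  have h2 := two_ne_of_odd_card hodd
  have hp : Odd p := by
    rw [hF] at hodd
    exact Nat.Odd.of_mul_right (n := p) (m := p ^ (f - 1)) (by
      rcases Nat.eq_zero_or_pos f with h0 | h0
      · exfalso
        subst h0
        have h1 : 1 < Fintype.card F := Fintype.one_lt_card
        rw [hF] at h1
        simp at h1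
      · rw [← pow_succ, Nat.sub_add_cancel h0]
        exact hodd)
  have h2₀ : (2 : F₀) ≠ 0 := two_ne_of_odd_card (by rw [hF₀]; exact hp.pow)
  haveI := std_odd m h2
  haveI := rig_odd m hm h2
  haveI := std_odd m h2₀
  haveI := rig_odd m hm h2₀
  have key : ∀ (Qf : (Unit ⊕ (Fin m ⊕ Fin m) → F) → F), Qf = ⇑(oddQF m F) →
      ∀ (Qf₀ : (Unit ⊕ (Fin m ⊕ Fin m) → F₀) → F₀), Qf₀ = ⇑(oddQF m F₀) →
      Cfsg.gammaPOmega F Qf = ⊤ →
      ∀ (x : MulAut (Cfsg.POmega F Qf)), Cfsg.IsFieldAutClassPOmega Qf x → orderOf x = r →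
        (r ∣ f ∧ Nonempty (↥(Cfsg.pgoAut F Qf ⊓ Subgroup.centralizer {x}) ≃*
          ↥(Cfsg.pgoAut F₀ Qf₀)) ∧
        (Odd r → Cfsg.splitClassCount (Cfsg.pgoAut F Qf) (Cfsg.Inn (Cfsg.POmega F Qf)) x = 1) ∧
        (r = 2 → Cfsg.splitClassCount (Cfsg.pgoAut F Qf) (Cfsg.Inn (Cfsg.POmega F Qf)) x = 2)) := by
    rintro _ rfl _ rfl hA x hx hxr
    exact field_cent (oddQF m F) hF (normal_of_gamma _ hA) x hx hr hxr F₀ hF₀ (oddQF m F₀)
      (fun j => Bm_odd_map m j)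
  exact key _ (oddQF_coe m F).symm _ (oddQF_coe m F₀).symm hAut x hx hxr

theorem card_aut_odd {F : Type*} [Field F] [Fintype F] (p f : ℕ) [Fact p.Prime]
    (hF : Fintype.card F = p ^ f) (hodd : Odd p) (m : ℕ) (hm : 3 ≤ m)
    (hAut : Cfsg.gammaPOmega F (Cfsg.quadFormOdd m F) = ⊤) :
    Nat.card (MulAut (Cfsg.POmega F (Cfsg.quadFormOdd m F))) =
      2 * f * Nat.card (Cfsg.POmega F (Cfsg.quadFormOdd m F)) := by
  have h2 : (2 : F) ≠ 0 := two_ne_of_odd_card (by rw [hF]; exact hodd.pow)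
  haveI := std_odd m h2
  haveI := rig_odd m hm h2
  have key : ∀ (Qf : (Unit ⊕ (Fin m ⊕ Fin m) → F) → F), Qf = ⇑(oddQF m F) →
      Cfsg.gammaPOmega F Qf = ⊤ →
      Nat.card (MulAut (Cfsg.POmega F Qf)) = 2 * f * Nat.card (Cfsg.POmega F Qf) := by
    rintro _ rfl hA
    exact card_aut (oddQF m F) hF hA
  exact key _ (oddQF_coe m F).symm hAut

theorem out_equiv_odd {F : Type*} [Field F] [Fintype F] {p f m : ℕ} [Fact p.Prime] (hf : 1 ≤ f)
    (hF : Fintype.card F = p ^ f) (hp : p ≠ 2) (hm : 3 ≤ m)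
    (hAut : Cfsg.gammaPOmega F (Cfsg.quadFormOdd m F) = ⊤) :
    Nonempty (Cfsg.Out (Cfsg.POmega F (Cfsg.quadFormOdd m F)) ≃*
      Multiplicative (ZMod 2 × ZMod f)) := by
  have hodd : Odd p := (Fact.out : p.Prime).odd_of_ne_two hp
  have h2 : (2 : F) ≠ 0 := two_ne_of_odd_card (by rw [hF]; exact hodd.pow)
  haveI := std_odd m h2
  haveI := rig_odd m hm h2
  have key : ∀ (Qf : (Unit ⊕ (Fin m ⊕ Fin m) → F) → F), Qf = ⇑(oddQF m F) →
      Cfsg.gammaPOmega F Qf = ⊤ →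
      Nonempty (Cfsg.Out (Cfsg.POmega F Qf) ≃* Multiplicative (ZMod 2 × ZMod f)) := by
    rintro _ rfl hA
    exact out_equiv (oddQF m F) hf hF hA
  exact key _ (oddQF_coe m F).symm hAut

end Cfsg.Agent.Lib.Helper59.AutO
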